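import Cfsg.Agent.Lib.KnownSimple.U34BLab.Data

set_option autoImplicit false
set_option maxRecDepth 100000

namespace Cfsg.Agent.Lib.KnownSimple.U34BLab

open Cfsg.Agent.Lib.KnownSimple.Lab Cfsg.Agent.Lib.KnownSimple.U34BLab Dat

theorem hV1_c0 : allI (fun i => varOK D 1 i) 0 195 = true := by decide +kernel
theorem hV1_u0 : ∀ i, i < 195 → (fun i => varOK D 1 i) i = true :=
  allI_join allI_start hV1_c0 rfl
theorem hV1 : ∀ i, i < 195 → (fun i => varOK D 1 i) i = true := hV1_u0

end Cfsg.Agent.Lib.KnownSimple.U34BLab
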