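-- Generated: a labelled coset table for `U34B`.
import Cfsg.Agent.Lib.KnownSimple.U34BLab.ChecksA
import Cfsg.Agent.Lib.KnownSimple.U34BLab.ChecksV0
import Cfsg.Agent.Lib.KnownSimple.U34BLab.ChecksV1
import Cfsg.Agent.Lib.KnownSimple.U34BLab.ChecksV2
import Cfsg.Agent.Lib.KnownSimple.U34BLab.ChecksV3
import Cfsg.Agent.Lib.KnownSimple.LabTower
import Cfsg.Agent.Lib.KnownSimple.LabFinalA
import Cfsg.Agent.Lib.KnownSimple.LabPoly

set_option autoImplicit false
set_option maxRecDepth 100000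

universe u

namespace Cfsg.Agent.Lib.KnownSimple.U34BLab

open Cfsg.Agent.Lib.KnownSimple.Lab Subgroup 

def gwx : List ℕ := [1, 0, 1, 1, 0, 3, 2, 3, 2, 3, 0, 1, 0, 1, 2, 3, 2, 1, 0, 3, 2, 3, 2, 1, 0, 3]
def gwy : List ℕ := [0, 0, 1, 0, 3, 0, 1, 2, 1, 2, 3, 0, 1, 2, 3, 2, 1, 0, 3, 2, 3, 2, 1, 0, 3, 2]
def gw (a : ℕ) : List ℕ := [gwx, gwy].getD a []

def wordsL : List (List ℕ) := [wr0, wr1, wr2, wr3, wr4, wr5, wr6, wr7, wr8, wr9, rw0, rw1, rw2, rw3, rw4, rw5, rw6, rw7, rw8, rw9, rw10, rw11, rw12, rw13, rw14, rw15, rw16, rw17, rw18, rw19, rw20, rw21, rw22, rw23, rw24, rw25, rw26, rw27, pw2, pw3, pw4, pw5, pw6, pw7]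

def chk (w : List ℕ) : Bool := wordsL.elem w


theorem hgw1 : ∀ a < 2, ∀ b ∈ gw a, b < 2 * 2 := by
  intro a ha
  interval_cases a
  · exact (by decide +kernel : ∀ b ∈ gwx, b < 2 * 2)
  · exact (by decide +kernel : ∀ b ∈ gwy, b < 2 * 2)

theorem hgw3 : ∀ a < 2, balanced 2 (gw a) = true := by
  intro a ha
  interval_cases a <;> decide +kernel

theorem hT : ∀ a < D.k, ∀ i < D.n, D.T a i < D.n := by
  intro a ha i hi
  have ha' : a < 4 := ha
  have hi' : i < 195 := hi
  show D.T a i < 195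
  interval_cases a
  · exact Nat.le_of_ble_eq_true (hT0 i hi')
  · exact Nat.le_of_ble_eq_true (hT1 i hi')
  · exact Nat.le_of_ble_eq_true (hT2 i hi')
  · exact Nat.le_of_ble_eq_true (hT3 i hi')

theorem hRchk : allI (fun ρ => (Rget ρ).all (fun a => Nat.blt a 4)) 0 10 = true := by decide +kernel

theorem hR : ∀ ρ < D.r, ∀ a ∈ D.R ρ, a < D.k := by
  intro ρ hρ a ha
  have h1 := of_allI hRchk ρ (Nat.zero_le _) hρ
  exact Nat.le_of_ble_eq_true (List.all_eq_true.mp h1 a ha)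

theorem hR4 : ∀ ρ < D.r, ∀ a ∈ D.R ρ, a < 4 := hR

theorem hp : ∀ j, 0 < j → j < D.n → D.par j < j ∧ D.gn j < D.k ∧ D.T (D.gn j) (D.par j) = j := by
  intro j h0 hj
  have h := hTree j hj
  simp only [Bool.or_eq_true, Bool.and_eq_true, Nat.beq_eq, Nat.blt_eq] at h
  rcases h with h | ⟨⟨h1, h2⟩, h3⟩
  · omega
  · exact ⟨h1, h2, h3⟩

theorem hZ : ∀ ρ < D.r, D.Z ρ = true → ∃ a < 2, D.R ρ = [a, a + 2] ∨ D.R ρ = [a + 2, a] ∨
    D.R ρ = (a + 2) :: gw a := by
  intro ρ hρ h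
  have hρ' : ρ < 10 := hρ
  interval_cases ρ
  · exact ⟨0, by norm_num, Or.inr (Or.inl rfl)⟩
  · exact ⟨0, by norm_num, Or.inl rfl⟩
  · exact ⟨1, by norm_num, Or.inr (Or.inl rfl)⟩
  · exact ⟨1, by norm_num, Or.inl rfl⟩
  · exact absurd h (by decide +kernel)
  · exact absurd h (by decide +kernel)
  · exact absurd h (by decide +kernel)
  · exact absurd h (by decide +kernel)
  · exact ⟨0, by norm_num, Or.inr (Or.inr rfl)⟩
  · exact ⟨1, by norm_num, Or.inr (Or.inr rfl)⟩

theorem hPkchk : allI (fun t => (Nat.blt (D.P t).1 4 && Nat.blt (D.P t).2 195) ||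
    (Nat.ble 4 (D.P t).1 && Nat.blt ((D.P t).1 - 4) 10 && Nat.beq (D.P t).2 0)) 0 8 = true := by decide +kernel

theorem hPk : ∀ t < D.m, ((D.P t).1 < D.k ∧ (D.P t).2 < D.n) ∨
    (D.k ≤ (D.P t).1 ∧ (D.P t).1 - D.k < D.r ∧ (D.P t).2 = 0) := by
  intro t ht
  have := of_allI hPkchk t (Nat.zero_le _) ht
  simp only [Bool.or_eq_true, Bool.and_eq_true, Nat.beq_eq, Nat.blt_eq, Nat.ble_eq, and_assoc] at this
  exact this

theorem hPLchk : allI (fun t => vbeq (D.L (D.P t).1 (D.P t).2) (vunit 8 t)) 0 8 = true := by decide +kernel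

theorem hPL : ∀ t < D.m, vbeq (D.L (D.P t).1 (D.P t).2) (vunit D.m t) = true := fun t ht =>
  of_allI hPLchk t (Nat.zero_le _) ht

theorem hvar : ∀ a < D.k, ∀ i < D.n, Dat.varOK D a i = true := by
  intro a ha i hi
  have ha' : a < 4 := ha
  have hi' : i < 195 := hi
  interval_cases a
  · exact hV0 i hi'
  · exact hV1 i hi'
  · exact hV2 i hi'
  · exact hV3 i hi'

theorem hrvchk : allI (fun ρ => Dat.relOK D ρ) 0 10 = true := by decide +kernel

theorem hrv : ∀ ρ < D.r, Dat.relOK D ρ = true := fun ρ hρ => of_allI hrvchk ρ (Nat.zero_le _) hρ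

def rels : List (ℕ × ℕ) := [(8, 0), (9, 0), (7, 79), (5, 139), (7, 24), (7, 164), (5, 163), (7, 11), (7, 133)]

theorem hrelschk : rels.all (fun x => Dat.relClosed D x.1 x.2) = true := by decide +kernel

theorem hrels : ∀ x ∈ rels, Dat.relClosed D x.1 x.2 = true := fun x hx => List.all_eq_true.mp hrelschk x hx

def gv0 : List ℤ := [(-259), 0, 2297, (-685), (-5), 0, 0, 304]
def wN0 : List ℤ := [(-20), 10, 0, (-1), 299, 1, 5, 0, 0]
def gv1 : List ℤ := [0, 0, 4, 0, 0, 0, 0, 1]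
def wN1 : List ℤ := [(-2), 0, 0, 10, 1, (-1), 1, 1, 0]
def gv2 : List ℤ := [260, 0, (-2303), 685, 5, 0, 0, (-305)]
def wN2 : List ℤ := [26, (-8), 0, (-30), (-299), 5, (-8), (-4), (-1)]
def gv3 : List ℤ := [104, 0, (-921), 274, 2, 0, 0, (-122)]
def wN3 : List ℤ := [50, (-20), 1, (-50), (-601), 5, (-16), (-6), 0]
def gvs : List (List ℤ) := [gv0, gv1, gv2, gv3]
def bL : List (List ℤ) := [[1, 1, (-3), 10], [0, (-2), 0, (-5)], [0, 0, (-2), 5], [0, 0, (-2), 4], [(-52), 9, (-3), 15], [9, 1, (-1), 5], [28, (-7), 0, (-8)], [0, 1, 8, (-20)]]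
def WL : List (List ℤ) := [[0, 0, 0, 0, 0, 0, 0, 0, 0], [20, (-10), 0, 0, (-299), 0, (-5), 0, 0], [0, 0, 0, 0, 0, 0, 0, 0, 0], [4, (-2), 0, 0, (-60), 0, (-1), 0, 0], [(-548), 274, 0, 0, 8220, 0, 137, 0, 0], [80, (-41), 0, 0, (-1196), 0, (-20), 0, 0], [311, (-156), 0, 0, (-4663), 0, (-78), 0, 0], [0, 0, 0, 0, 0, 0, 0, 0, 0]]

theorem hfinchk : allI (fun u => vbeq (vunit 8 u) (vadd (lin (bL.getD u []) gvs)
    (lin (WL.getD u []) (rels.map fun x => Dat.relRow D x.1 x.2)))) 0 8 = true := by decide +kernel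

theorem hfin : ∀ u < D.m, vbeq (vunit D.m u) (vadd (lin (bL.getD u []) gvs)
    (lin (WL.getD u []) (rels.map fun x => Dat.relRow D x.1 x.2))) = true := fun u hu =>
  of_allI hfinchk u (Nat.zero_le _) hu

theorem hN0 : vbeq (vscale ((2 : ℕ) : ℤ) gv0) (lin wN0 (rels.map fun x => Dat.relRow D x.1 x.2)) = true := by decide +kernel
theorem hN1 : vbeq (vscale ((2 : ℕ) : ℤ) gv1) (lin wN1 (rels.map fun x => Dat.relRow D x.1 x.2)) = true := by decide +kernel
theorem hN2 : vbeq (vscale ((2 : ℕ) : ℤ) gv2) (lin wN2 (rels.map fun x => Dat.relRow D x.1 x.2)) = true := by decide +kernel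
theorem hN3 : vbeq (vscale ((10 : ℕ) : ℤ) gv3) (lin wN3 (rels.map fun x => Dat.relRow D x.1 x.2)) = true := by decide +kernel

    theorem hpc : pcWF pcL = true := by decide +kernel

    theorem hlet : ∀ p ∈ pcL, ∀ a ∈ p.u, a < 2 * 2 := by decide +kernel

    theorem hRelW : relWords 2 pcL = [rw0, rw1, rw2, rw3, rw4, rw5, rw6, rw7, rw8, rw9, rw10, rw11, rw12, rw13, rw14, rw15, rw16, rw17, rw18, rw19, rw20, rw21, rw22, rw23, rw24, rw25, rw26, rw27] := by decide +kernel

    theorem hprod : (pcL.map PC.o).prod = 320 := by decide +kernel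

    def peL : List (List ℕ) := [[], [], [0, 1, 0, 0, 1, 0, 0], [1, 0, 0, 0, 0, 0, 0], [0, 0, 1, 1, 1, 1, 1], [0, 1, 1, 0, 0, 0, 1], [3, 0, 0, 0, 0, 0, 1], [0, 1, 0, 0, 1, 0, 0]]

    theorem hparW : parP 2 (pcL.map PC.u) D.T D.par D.gn (D.P 2).1 (D.P 2).2 (peL.getD 2 []) = pw2 ∧ parP 2 (pcL.map PC.u) D.T D.par D.gn (D.P 3).1 (D.P 3).2 (peL.getD 3 []) = pw3 ∧ parP 2 (pcL.map PC.u) D.T D.par D.gn (D.P 4).1 (D.P 4).2 (peL.getD 4 []) = pw4 ∧ parP 2 (pcL.map PC.u) D.T D.par D.gn (D.P 5).1 (D.P 5).2 (peL.getD 5 []) = pw5 ∧ parP 2 (pcL.map PC.u) D.T D.par D.gn (D.P 6).1 (D.P 6).2 (peL.getD 6 []) = pw6 ∧ parP 2 (pcL.map PC.u) D.T D.par D.gn (D.P 7).1 (D.P 7).2 (peL.getD 7 []) = pw7 := by decide +kernel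

theorem hPnon : ¬ (D.P 0).1 < D.k ∧ ¬ (D.P 1).1 < D.k := by decide +kernel


/-- All words of the table, from a predicate on a list. -/
theorem words_of (φ : List ℕ → Prop) (h : ∀ w ∈ wordsL, φ w) :
    (∀ w ∈ relWords 2 pcL, φ w) ∧ (∀ ρ < D.r, φ (D.R ρ)) ∧
    (∀ u < D.m, (D.P u).1 < D.k →
      φ (parP 2 (pcL.map PC.u) D.T D.par D.gn (D.P u).1 (D.P u).2 (peL.getD u []))) := by
  refine ⟨?_, ?_, ?_⟩
  · intro w hw
    rw [hRelW] at hw
    simp only [List.mem_cons, List.not_mem_nil, or_false] at hw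
    rcases hw with rfl | rfl | rfl | rfl | rfl | rfl | rfl | rfl | rfl | rfl | rfl | rfl | rfl | rfl | rfl | rfl | rfl | rfl | rfl | rfl | rfl | rfl | rfl | rfl | rfl | rfl | rfl | rfl
    · exact h _ (by simp [wordsL])
    · exact h _ (by simp [wordsL])
    · exact h _ (by simp [wordsL])
    · exact h _ (by simp [wordsL])
    · exact h _ (by simp [wordsL])
    · exact h _ (by simp [wordsL])
    · exact h _ (by simp [wordsL])
    · exact h _ (by simp [wordsL])
    · exact h _ (by simp [wordsL])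
    · exact h _ (by simp [wordsL])
    · exact h _ (by simp [wordsL])
    · exact h _ (by simp [wordsL])
    · exact h _ (by simp [wordsL])
    · exact h _ (by simp [wordsL])
    · exact h _ (by simp [wordsL])
    · exact h _ (by simp [wordsL])
    · exact h _ (by simp [wordsL])
    · exact h _ (by simp [wordsL])
    · exact h _ (by simp [wordsL])
    · exact h _ (by simp [wordsL])
    · exact h _ (by simp [wordsL])
    · exact h _ (by simp [wordsL])
    · exact h _ (by simp [wordsL])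
    · exact h _ (by simp [wordsL])
    · exact h _ (by simp [wordsL])
    · exact h _ (by simp [wordsL])
    · exact h _ (by simp [wordsL])
    · exact h _ (by simp [wordsL])
  · intro ρ hρ
    have hρ' : ρ < 10 := hρ
    interval_cases ρ
    · exact h wr0 (by simp [wordsL])
    · exact h wr1 (by simp [wordsL])
    · exact h wr2 (by simp [wordsL])
    · exact h wr3 (by simp [wordsL])
    · exact h wr4 (by simp [wordsL])
    · exact h wr5 (by simp [wordsL])
    · exact h wr6 (by simp [wordsL])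
    · exact h wr7 (by simp [wordsL])
    · exact h wr8 (by simp [wordsL])
    · exact h wr9 (by simp [wordsL])
  · intro u hu hl
    have hu' : u < 8 := hu
    interval_cases u
    · exact absurd hl hPnon.1
    · exact absurd hl hPnon.2
    · rw [hparW.1]
      exact h _ (by simp [wordsL])
    · rw [hparW.2.1]
      exact h _ (by simp [wordsL])
    · rw [hparW.2.2.1]
      exact h _ (by simp [wordsL])
    · rw [hparW.2.2.2.1]
      exact h _ (by simp [wordsL])
    · rw [hparW.2.2.2.2.1]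
      exact h _ (by simp [wordsL])
    · rw [hparW.2.2.2.2.2]
      exact h _ (by simp [wordsL])

theorem hPn : ∀ u < D.m, (D.P u).1 < D.k → (D.P u).2 < D.n := by
  intro u hu h
  rcases hPk u hu with h1 | h1
  · exact h1.2
  · omega

/-- The primes excluded. -/
def exclL : List ℕ := [2, 5]

theorem hexcl : ∀ p ∈ exclL, p.Prime := by
  intro p hp
  simp only [exclL, List.mem_cons, List.not_mem_nil, or_false] at hp
  rcases hp with rfl | rfl <;> norm_num

section main

variable {G : Type u} [Group G] [Finite G] (g : ℕ → G)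

/-- The words generate a perfect group. -/
theorem perfect_of (hgi : ∀ a < 2, g (a + 2) = (g a)⁻¹) (hgen : closure (g '' {a | a < 2 * 2}) = ⊤)
    (heq : ∀ w ∈ wordsL, wval g w = 1) (x : G) : x ∈ commutator G := by
  have hrel := (words_of (fun w => wval g w = 1) heq).2.1
  have hgw2 : ∀ a < 2, wval g (gw a) = g a := by
    intro a ha
    interval_cases a
    · have h := hrel 8 (by decide +kernel)
      rw [show D.R 8 = 2 :: gwx from rfl, wval_cons, show g 2 = (g 0)⁻¹ from hgi 0 (by norm_num)] at h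
      exact (inv_mul_eq_one.mp h).symm
    · have h := hrel 9 (by decide +kernel)
      rw [show D.R 9 = 3 :: gwy from rfl, wval_cons, show g 3 = (g 1)⁻¹ from hgi 1 (by norm_num)] at h
      exact (inv_mul_eq_one.mp h).symm
  exact perfect_of_balanced 2 g hgi hgen gw hgw1 hgw2 hgw3 x

/-- A prime does not divide the kernel of a stem extension. -/
theorem notP (R : ℕ) (hRp : R.Prime) (hne : ∀ p ∈ exclL, R ≠ p)
    (hgi : ∀ a < 2, g (a + 2) = (g a)⁻¹) (hgen : closure (g '' {a | a < 2 * 2}) = ⊤)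
    (heq : ∀ w ∈ wordsL, wval g w = 1)
    (hcardG : Nat.card G = 62400)
    (Γ : Type u) [Group Γ] [Finite Γ] (σ : Γ →* G) (hσ : Cfsg.IsStemExtension σ) :
    ¬ R ∣ Nat.card σ.ker := by
  have hcard : Nat.card G = D.n * (pcL.map PC.o).prod := by
    rw [hprod, hcardG]
    decide +kernel
  obtain ⟨hpcG, hrelG, hparG⟩ := words_of (fun w => wval g w = 1) heq
  have hgw2 : ∀ a < 2, wval g (gw a) = g a := by
    intro a ha
    interval_cases a
    · have h := hrelG 8 (by decide +kernel)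
      rw [show D.R 8 = 2 :: gwx from rfl, wval_cons, show g 2 = (g 0)⁻¹ from hgi 0 (by norm_num)] at h
      exact (inv_mul_eq_one.mp h).symm
    · have h := hrelG 9 (by decide +kernel)
      rw [show D.R 9 = 3 :: gwy from rfl, wval_cons, show g 3 = (g 1)⁻¹ from hgi 1 (by norm_num)] at h
      exact (inv_mul_eq_one.mp h).symm
  have hrH : ¬ R ∣ (pcL.map PC.o).prod := by
    rw [hprod, show (320 : ℕ) = ([2, 2, 2, 2, 2, 2, 5] : List ℕ).prod by decide +kernel]
    exact not_dvd_prod hRp exclL hexcl hne _ (by decide +kernel)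
  refine not_dvd_of_table D 2 rfl (by decide +kernel) g hgi hgen pcL hpc hlet hpcG hcard
    gw hgw1 hgw2 hgw3 hT hR hp hrelG hZ hPk hPL hvar hrv rels hrels gvs (fun u => bL.getD u []) (fun u => WL.getD u [])
    hfin (fun u => peL.getD u []) hparG R hRp hrH ?_ Γ σ hσ
  intro v hv
  simp only [gvs, List.mem_cons, List.not_mem_nil, or_false] at hv
  rcases hv with rfl | rfl | rfl | rfl
  · exact ⟨2, wN0, by rw [show (2 : ℕ) = ([2] : List ℕ).prod by decide +kernel]; exact not_dvd_prod hRp exclL hexcl hne _ (by decide +kernel), hN0⟩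
  · exact ⟨2, wN1, by rw [show (2 : ℕ) = ([2] : List ℕ).prod by decide +kernel]; exact not_dvd_prod hRp exclL hexcl hne _ (by decide +kernel), hN1⟩
  · exact ⟨2, wN2, by rw [show (2 : ℕ) = ([2] : List ℕ).prod by decide +kernel]; exact not_dvd_prod hRp exclL hexcl hne _ (by decide +kernel), hN2⟩
  · exact ⟨10, wN3, by rw [show (10 : ℕ) = ([2, 5] : List ℕ).prod by decide +kernel]; exact not_dvd_prod hRp exclL hexcl hne _ (by decide +kernel), hN3⟩

end main

end Cfsg.Agent.Lib.KnownSimple.U34BLab
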